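import Mathlib
import Cfsg.Agent.Lib.ChevOrth.Gen
import Cfsg.Agent.Lib.Orth.Forms
import Cfsg.Agent.Lib.Lie.AxOf
import Cfsg.Agent.S1056

/-!
`B₂(F) ≅ PΩ₅(F)` for the form `x₀² + x₁y₁ + x₂y₂`, over any field with more than two elements (in any characteristic).
-/

set_option autoImplicit false
set_option linter.unusedSectionVars false
set_option linter.unusedVariables false
set_option linter.unusedSimpArgs false

namespace Cfsg.Agent.Lib.ChevOrth.B2

open Cfsg.Lie Matrix QuadraticMap Module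
open Cfsg.Agent.Lib.OrthRefl.Eichler Cfsg.Agent.Lib.Classical.QuadEichler Cfsg.Agent.Lib.Witt.Quadratic
open Cfsg.Agent.Lib.Orth.Forms Cfsg.Agent.Lib.Orth.Gram Cfsg.Agent.Lib.Orth.Refl
open Cfsg.Agent.Lib.ChevOrth.Hyp Cfsg.Agent.Lib.ChevOrth.Equi Cfsg.Agent.Lib.ChevOrth.Gen
open scoped commutatorElement

/-- The coordinates. -/
abbrev I := Unit ⊕ (Fin 2 ⊕ Fin 2)

/-- The dual coordinate. -/
def dual : I → I
  | .inl u => .inl u
  | .inr x => .inr (Sum.swap x)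

/-- The first vector of the pair of each root. -/
def aL : List I := [.inr (.inr 0), .inr (.inr 0), .inr (.inr 1), .inr (.inr 0), .inr (.inl 0), .inr (.inl 1), .inr (.inl 0), .inr (.inl 0)]

/-- The second vector of the pair of each root. -/
def bL : List I := [.inr (.inr 1), .inl (), .inl (), .inr (.inl 1), .inr (.inr 1), .inl (), .inl (), .inr (.inl 1)]

/-- The sign of each root. -/
def sL : List ℤ := [-1, -1, -1, -1, 1, 1, 1, 1]

/-- The images of the fundamental coroots. -/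
def hL : List (List (ℤ × I × I)) := [[(2, .inr (.inl 1), .inr (.inr 1))], [(1, .inr (.inl 0), .inr (.inr 0)), (-1, .inr (.inl 1), .inr (.inr 1))]]

/-- The tables. -/
def T : Data chevB2 I where
  J u v := if v = dual u then (match u with | .inl _ => 2 | .inr _ => 1) else 0
  qv u := match u with | .inl _ => 1 | .inr _ => 0
  a r := aL.getD r (.inl ())
  b r := bL.getD r (.inl ())
  s r := sL.getD r 1
  pi c := if c < 8 then [(sL.getD c 1, aL.getD c (.inl ()), bL.getD c (.inl ()))] else hL.getD (c - 8) []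

set_option maxRecDepth 100000 in
theorem chk : T.check = true := by decide +kernel

variable {F : Type*} [Field F]

theorem nroots_eq : chevB2.nroots = 8 := rfl

abbrev X0 : I := .inl ()
abbrev E (i : Fin 2) : I := .inr (.inl i)
abbrev Ff (i : Fin 2) : I := .inr (.inr i)

theorem Q_apply (v : I → F) : oddForm 2 F v = v X0 ^ 2 + v (E 0) * v (Ff 0) + v (E 1) * v (Ff 1) := by
  rw [coe_oddForm]
  simp [quadFormOdd, Fin.sum_univ_two, add_assoc]

/-- The polar form on basis vectors. -/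
theorem polar_right (v : I → F) (w : I) : polar (oddForm 2 F) v (bv F w) = ((T.J (dual w) w : ℤ) : F) * v (dual w) := by
  have h1 : polar (oddForm 2 F) v (bv F w) = (oddForm 2 F (v + bv F w) - oddForm 2 F v - oddForm 2 F (bv F w)) := rfl
  rw [h1, Q_apply, Q_apply, Q_apply]
  rcases w with u | (i | i)
  · fin_cases u
    simp [T, dual, Pi.single_apply]
    ring
  · fin_cases i <;> simp [T, dual, Pi.single_apply] <;> ring
  · fin_cases i <;> simp [T, dual, Pi.single_apply] <;> ring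

theorem dual_dual (u : I) : dual (dual u) = u := by
  rcases u with u | x
  · rfl
  · simp [dual]

theorem polar_bv (u v : I) : polar (oddForm 2 F) (bv F u) (bv F v) = (T.J u v : F) := by
  rw [polar_right]
  by_cases h : dual v = u
  · subst h
    simp
  · have h1 : T.J u v = 0 := by
      show (if v = dual u then _ else _) = _
      rw [if_neg]
      intro h2
      apply h
      rw [h2, dual_dual]
    rw [h1]
    simp [Pi.single_apply, Ne.symm h]

theorem Q_bv (u : I) : oddForm 2 F (bv F u) = (T.qv u : F) := by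
  rw [Q_apply]
  rcases u with u | (i | i)
  · fin_cases u
    simp [T, Pi.single_apply]
  · fin_cases i <;> simp [T, Pi.single_apply]
  · fin_cases i <;> simp [T, Pi.single_apply]

theorem good : Good chevB2 T (oddForm 2 F) where
  hJ := polar_bv
  hq := Q_bv
  hs r hr := by
    rw [nroots_eq] at hr
    revert r
    decide +kernel

theorem hp : HP (oddForm 2 F) (bv F (E 0)) (bv F (Ff 0)) (bv F (E 1)) (bv F (Ff 1)) where
  Qe₁ := by rw [Q_bv]; simp [T]
  Qf₁ := by rw [Q_bv]; simp [T]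
  Qe₂ := by rw [Q_bv]; simp [T]
  Qf₂ := by rw [Q_bv]; simp [T]
  e₁f₁ := by rw [polar_bv]; simp [T, dual]
  e₂f₂ := by rw [polar_bv]; simp [T, dual]
  e₁e₂ := by rw [polar_bv]; simp [T, dual]
  e₁f₂ := by rw [polar_bv]; simp [T, dual]
  f₁e₂ := by rw [polar_bv]; simp [T, dual]
  f₁f₂ := by rw [polar_bv]; simp [T, dual]

/-- The singular basis vectors orthogonal to the first plane. -/
def S : Set (I → F) := {bv F (E 1), bv F (Ff 1)}

theorem hS : ∀ z ∈ S (F := F), oddForm 2 F z = 0 ∧ polar (oddForm 2 F) z (bv F (E 0)) = 0 ∧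
    polar (oddForm 2 F) z (bv F (Ff 0)) = 0 := by
  rintro z (rfl | rfl)
  · exact ⟨hp.Qe₂, by rw [polar_comm]; exact hp.e₁e₂, by rw [polar_comm]; exact hp.f₁e₂⟩
  · exact ⟨hp.Qf₂, by rw [polar_comm]; exact hp.e₁f₂, by rw [polar_comm]; exact hp.f₁f₂⟩

theorem polar_E (v : I → F) (i : Fin 2) : polar (oddForm 2 F) v (bv F (E i)) = v (Ff i) := by
  rw [polar_right]
  simp [T, dual]

theorem polar_F (v : I → F) (i : Fin 2) : polar (oddForm 2 F) v (bv F (Ff i)) = v (E i) := by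
  rw [polar_right]
  simp [T, dual]

theorem polar_X (v : I → F) : polar (oddForm 2 F) v (bv F X0) = 2 * v X0 := by
  rw [polar_right]
  simp [T, dual]

theorem ext_I {v w : I → F} (h0 : v X0 = w X0) (h1 : ∀ i, v (E i) = w (E i)) (h2 : ∀ i, v (Ff i) = w (Ff i)) : v = w := by
  funext u
  rcases u with u | (i | i)
  · exact h0
  · exact h1 i
  · exact h2 i

theorem hsing : ∀ v : I → F, oddForm 2 F v = 0 → v ≠ 0 → polar (oddForm 2 F) v (bv F (Ff 0)) ≠ 0 ∨
    polar (oddForm 2 F) v (bv F (E 0)) ≠ 0 ∨ ∃ z ∈ S (F := F), polar (oddForm 2 F) v z ≠ 0 := by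
  intro v hQ hv
  by_contra hcon
  push Not at hcon
  obtain ⟨h1, h2, h3⟩ := hcon
  have h4 := h3 _ (Or.inl rfl : bv F (E 1) ∈ S (F := F))
  have h5 := h3 _ (Or.inr rfl : bv F (Ff 1) ∈ S (F := F))
  rw [polar_F] at h1 h5
  rw [polar_E] at h2 h4
  rw [Q_apply, h1, h2, h4, h5] at hQ
  simp only [mul_zero, zero_mul, add_zero, sq_eq_zero_iff] at hQ
  apply hv
  apply ext_I
  · exact hQ
  · intro i
    fin_cases i
    · exact h1
    · exact h5
  · intro i
    fin_cases i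
    · exact h2
    · exact h4

theorem hS2 : bv F (E 1) ∈ S (F := F) := Or.inl rfl
theorem hS3 : bv F (Ff 1) ∈ S (F := F) := Or.inr rfl

theorem J_zero (c d : I) (hd : d = dual c) : ∀ b, b ≠ d → polar (oddForm 2 F) (bv F c) (bv F b) = 0 := by
  intro b hb
  rw [polar_bv]
  have : T.J c b = 0 := by
    show (if b = dual c then _ else _) = _
    rw [if_neg (by rw [← hd]; exact hb)]
  rw [this]; simp

theorem root_e : ∀ b : I, b ≠ E 0 → b ≠ Ff 0 → ∃ r, r < chevB2.nroots ∧ T.a r = E 0 ∧ T.b r = b := by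
  rw [nroots_eq]
  decide +kernel

theorem root_f : ∀ b : I, b ≠ Ff 0 → b ≠ E 0 → ∃ r, r < chevB2.nroots ∧ T.a r = Ff 0 ∧ T.b r = b := by
  rw [nroots_eq]
  decide +kernel

theorem eGroup_eq_X₀' : eGroup (oddForm 2 F) = X₀ (oddForm 2 F) (bv F (E 0)) (bv F (Ff 0)) :=
  eGroup_eq_X₀ (hp (F := F)) (S := S) hS hS2 hS3 hsing

theorem eGroup_eq_root : eGroup (oddForm 2 F) = rootGroup T (oddForm 2 F) := by
  apply le_antisymm _ rootGroup_le_eGroup
  rw [eGroup_eq_X₀', X₀, Subgroup.closure_le]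
  rintro g ⟨b, hb | hb⟩
  · exact mem_rootGroup good hb.Qa (J_zero _ _ rfl) (by rw [polar_bv]; simp [T, dual]) root_e hb
  · exact mem_rootGroup good hb.Qa (J_zero _ _ rfl) (by rw [polar_bv]; simp [T, dual]) root_f hb

/-! ### Diagonal isometries -/

/-- The diagonal linear map with coefficients `z` on `x₀`, `c i` on `e_i`, `(c i)⁻¹` on `f_i`. -/
noncomputable def dg (z : F) (c : Fin 2 → Fˣ) (hz : z * z = 1) : (I → F) ≃ₗ[F] (I → F) where
  toFun x u := match u with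
    | .inl a => z * x (.inl a)
    | .inr (.inl i) => (c i : F) * x (.inr (.inl i))
    | .inr (.inr i) => ((c i)⁻¹ : Fˣ) * x (.inr (.inr i))
  invFun x u := match u with
    | .inl a => z * x (.inl a)
    | .inr (.inl i) => ((c i)⁻¹ : Fˣ) * x (.inr (.inl i))
    | .inr (.inr i) => (c i : F) * x (.inr (.inr i))
  map_add' x y := by
    funext u
    rcases u with a | (i | i) <;> simp [mul_add]
  map_smul' a x := by
    funext u
    rcases u with a | (i | i) <;> simp [mul_left_comm]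
  left_inv x := by
    funext u
    rcases u with a | (i | i) <;> simp [← mul_assoc, hz]
  right_inv x := by
    funext u
    rcases u with a | (i | i) <;> simp [← mul_assoc, hz]

theorem dg_mem (z : F) (c : Fin 2 → Fˣ) (hz : z * z = 1) : dg z c hz ∈ isoGroup (oddForm 2 F) := by
  intro x
  rw [Q_apply, Q_apply]
  have e1 : (dg z c hz x) X0 = z * x X0 := rfl
  have e2 : ∀ i, (dg z c hz x) (E i) = (c i : F) * x (E i) := fun i => rfl
  have e3 : ∀ i, (dg z c hz x) (Ff i) = ((c i)⁻¹ : Fˣ) * x (Ff i) := fun i => rfl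
  rw [e1, e2, e2, e3, e3]
  have h0 : ((c 0 : F)) * (((c 0)⁻¹ : Fˣ) : F) = 1 := by simp
  have h1 : ((c 1 : F)) * (((c 1)⁻¹ : Fˣ) : F) = 1 := by simp
  linear_combination (x X0 ^ 2) * hz + (x (E 0) * x (Ff 0)) * h0 + (x (E 1) * x (Ff 1)) * h1

theorem dg_comm (z z' : F) (c c' : Fin 2 → Fˣ) (hz : z * z = 1) (hz' : z' * z' = 1) :
    dg z c hz * dg z' c' hz' = dg z' c' hz' * dg z c hz := by
  ext1 x
  funext u
  show (dg z c hz (dg z' c' hz' x)) u = (dg z' c' hz' (dg z c hz x)) u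
  rcases u with a | (i | i)
  · show z * (z' * _) = z' * (z * _)
    ring
  · show (c i : F) * ((c' i : F) * _) = (c' i : F) * ((c i : F) * _)
    ring
  · show (((c i)⁻¹ : Fˣ) : F) * ((((c' i)⁻¹ : Fˣ) : F) * _) = (((c' i)⁻¹ : Fˣ) : F) * ((((c i)⁻¹ : Fˣ) : F) * _)
    ring

theorem dg_mul (z z' : F) (c c' : Fin 2 → Fˣ) (hz : z * z = 1) (hz' : z' * z' = 1) :
    dg z c hz * dg z' c' hz' = dg (z * z') (c * c') (by
      calc z * z' * (z * z') = (z * z) * (z' * z') := by ring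
        _ = 1 := by rw [hz, hz', one_mul]) := by
  ext1 x
  funext u
  show (dg z c hz (dg z' c' hz' x)) u = _
  rcases u with a | (i | i)
  · show z * (z' * _) = (z * z') * _
    ring
  · show (c i : F) * ((c' i : F) * _) = (((c * c') i : Fˣ) : F) * _
    simp [mul_assoc]
  · show (((c i)⁻¹ : Fˣ) : F) * ((((c' i)⁻¹ : Fˣ) : F) * _) = ((((c * c') i)⁻¹ : Fˣ) : F) * _
    simp [mul_assoc, mul_left_comm, mul_comm]

/-- A transformation fixing a vector when its coordinates at the plane `i` vanish. -/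
theorem dg_apply_X (z : F) (c : Fin 2 → Fˣ) (hz : z * z = 1) :
    dg z c hz (bv F X0) = z • bv F X0 := by
  funext u
  rcases u with a | (i | i)
  · show z * _ = _
    simp [Pi.single_apply]
  · show (c i : F) * _ = _
    simp [Pi.single_apply]
  · show (((c i)⁻¹ : Fˣ) : F) * _ = _
    simp [Pi.single_apply]

theorem dg_apply_E (z : F) (c : Fin 2 → Fˣ) (hz : z * z = 1) (i : Fin 2) :
    dg z c hz (bv F (E i)) = (c i : F) • bv F (E i) := by
  funext u
  rcases u with a | (j | j)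
  · show z * _ = _
    simp [Pi.single_apply]
  · show (c j : F) * _ = _
    by_cases h : j = i
    · subst h
      simp [Pi.single_apply]
    · simp [Pi.single_apply, h]
  · show (((c j)⁻¹ : Fˣ) : F) * _ = _
    simp [Pi.single_apply]

theorem dg_apply_F (z : F) (c : Fin 2 → Fˣ) (hz : z * z = 1) (i : Fin 2) :
    dg z c hz (bv F (Ff i)) = (((c i)⁻¹ : Fˣ) : F) • bv F (Ff i) := by
  funext u
  rcases u with a | (j | j)
  · show z * _ = _
    simp [Pi.single_apply]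
  · show (c j : F) * _ = _
    simp [Pi.single_apply]
  · show (((c j)⁻¹ : Fˣ) : F) * _ = _
    by_cases h : j = i
    · subst h
      simp [Pi.single_apply]
    · simp [Pi.single_apply, h]

/-- Isometries fixing the hyperbolic pair's first vector: a centre-`e` Eichler transformation moves the image of `f` back. -/
theorem fix_pair {e f : I → F} (hf : oddForm 2 F f = 0) (hef : polar (oddForm 2 F) f e = 1)
    {g : (I → F) ≃ₗ[F] (I → F)} (hg : g ∈ isoGroup (oddForm 2 F)) (he : oddForm 2 F e = 0) (hge : g e = e) :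
    ∃ x, EAt (oddForm 2 F) e (g f - f) x ∧ x (g f) = f := by
  obtain ⟨x, hx, e1⟩ := exists_eAt_move (Q := oddForm 2 F) (a := e) (u := g f) (v := f) (t := 1) he
    (by rw [hg f]) one_ne_zero
    (by
      have := polar_eq_of_preserves g hg f e
      rw [hge] at this
      rw [this, hef]) hef
  rw [inv_one, one_smul] at hx
  exact ⟨x, hx, e1⟩

theorem polar_g {g : (I → F) ≃ₗ[F] (I → F)} (hg : g ∈ isoGroup (oddForm 2 F)) (x y : I → F) :
    polar (oddForm 2 F) (g x) (g y) = polar (oddForm 2 F) x y := polar_eq_of_preserves g hg x y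

/-- Every isometry is an Eichler element times a diagonal isometry. -/
theorem exists_decomp {g : (I → F) ≃ₗ[F] (I → F)} (hg : g ∈ isoGroup (oddForm 2 F)) :
    ∃ n ∈ eGroup (oddForm 2 F), ∃ z c hz, g = n * dg z c hz := by
  have H := hp (F := F)
  set Q := oddForm 2 F with hQdef
  set e₁ := bv F (E 0) with he₁
  set f₁ := bv F (Ff 0) with hf₁
  set e₂ := bv F (E 1) with he₂
  set f₂ := bv F (Ff 1) with hf₂
  have hinj : ∀ (g : (I → F) ≃ₗ[F] (I → F)) (v : I → F), v ≠ 0 → g v ≠ 0 := by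
    intro g v hv h0
    exact hv (g.map_eq_zero_iff.mp h0)
  have hne : ∀ u : I, bv F u ≠ 0 := by
    intro u h
    have := congrFun h u
    simp at this
  have hf₁e₁ : polar Q f₁ e₁ = 1 := by rw [polar_comm]; exact H.e₁f₁
  have hf₂e₂ : polar Q f₂ e₂ = 1 := by rw [polar_comm]; exact H.e₂f₂
  -- step A
  obtain ⟨x₁, hx₁, e1⟩ := orbit H hS hS2 hS3 (hsing (g e₁) (by rw [hg e₁]; exact H.Qe₁) (hinj g _ (hne _)))
  rw [hg e₁, H.Qe₁, zero_smul, add_zero] at e1
  have hx₁I : x₁ ∈ isoGroup Q := X₀_le_iso _ _ hx₁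
  have hx₁E : x₁ ∈ eGroup Q := X₀_le_eGroup _ _ hx₁
  set g₁ := x₁ * g with hg₁
  have hg₁I : g₁ ∈ isoGroup Q := Subgroup.mul_mem _ hx₁I hg
  have hg₁e : g₁ e₁ = e₁ := e1
  obtain ⟨x₂, hx₂, e2⟩ := fix_pair H.Qf₁ hf₁e₁ hg₁I H.Qe₁ hg₁e
  have hx₂I : x₂ ∈ isoGroup Q := hx₂.mem_iso
  set g₂ := x₂ * g₁ with hg₂
  have hg₂I : g₂ ∈ isoGroup Q := Subgroup.mul_mem _ hx₂I hg₁I
  have hg₂e : g₂ e₁ = e₁ := by
    show x₂ (g₁ e₁) = e₁
    rw [hg₁e]; exact hx₂.fix_center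
  have hg₂f : g₂ f₁ = f₁ := e2
  -- step B
  set y := g₂ e₂ with hy
  have hy1 : y (Ff 0) = 0 := by
    have h := polar_g hg₂I e₂ e₁
    rw [hg₂e] at h
    rw [← polar_E y 0]
    show polar Q (g₂ e₂) e₁ = 0
    rw [h, polar_comm]
    exact H.e₁e₂
  have hy2 : y (E 0) = 0 := by
    have h := polar_g hg₂I e₂ f₁
    rw [hg₂f] at h
    rw [← polar_F y 0]
    show polar Q (g₂ e₂) f₁ = 0
    rw [h, polar_comm]
    exact H.f₁e₂
  have hyQ : Q y = 0 := by rw [hy, hg₂I e₂]; exact H.Qe₂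
  have hy0 : y ≠ 0 := hinj g₂ _ (hne _)
  obtain ⟨x₃, hx₃E, hx₃e, hx₃f, hx₃c⟩ : ∃ x₃ ∈ eGroup Q, x₃ e₁ = e₁ ∧ x₃ f₁ = f₁ ∧ (x₃ y) (E 1) ≠ 0 := by
    by_cases hc : y (E 1) = 0
    · rw [hQdef, Q_apply, hy1, hy2, hc] at hyQ
      simp only [mul_zero, zero_mul, add_zero, sq_eq_zero_iff] at hyQ
      have h3 : y (Ff 1) ≠ 0 := by
        intro h4
        apply hy0
        apply ext_I
        · exact hyQ
        · intro i
          fin_cases i
          · exact hy2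
          · exact hc
        · intro i
          fin_cases i
          · exact hy1
          · exact h4
      obtain ⟨x, hx⟩ := exists_eAt (Q := Q) (a := e₂) (b := bv F X0) H.Qe₂ (by
        rw [polar_bv]; simp [T, dual])
      refine ⟨x, hx.mem_eGroup, hx.fix (by exact H.e₁e₂) (by rw [polar_bv]; simp [T, dual]),
        hx.fix (by exact H.f₁e₂) (by rw [polar_bv]; simp [T, dual]), ?_⟩
      rw [hx.apply']
      have h5 : polar Q y (bv F X0) = 0 := by
        rw [polar_X, hyQ, mul_zero]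
      rw [h5, he₂, polar_E]
      have h6 : Q (bv F X0) = 1 := by rw [Q_bv]; simp [T]
      rw [h6]
      simpa [Pi.single_apply, hc] using h3
    · exact ⟨1, Subgroup.one_mem _, rfl, rfl, hc⟩
  have hx₃I : x₃ ∈ isoGroup Q := eGroup_le_iso hx₃E
  -- step C
  set v := x₃ y with hv
  set c := v (E 1) with hc
  have hvf : polar Q v f₂ = c := polar_F v 1
  obtain ⟨x₄, w, hw, hx₄, d, e4⟩ := clear_pair H.Qf₂ H.e₂f₂ hvf hx₃c
  have hv1 : polar Q v e₁ = 0 := by
    rw [hv, ← hx₃e, polar_g hx₃I, hy, ← hg₂e, polar_g hg₂I, polar_comm]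
    exact H.e₁e₂
  have hv2 : polar Q v f₁ = 0 := by
    rw [hv, ← hx₃f, polar_g hx₃I, hy, ← hg₂f, polar_g hg₂I, polar_comm]
    exact H.f₁e₂
  have hvQ : Q v = 0 := by
    rw [hv, hx₃I y, hyQ]
  have hww1 : polar Q w e₁ = 0 := by
    rw [hw, polar_smul_left, polar_sub_left, polar_sub_left, polar_smul_left, polar_smul_left, hv1]
    have := polar_comm Q e₁ e₂
    rw [H.e₁e₂] at this
    rw [← this]
    have := polar_comm Q e₁ f₂
    rw [H.e₁f₂] at this
    rw [← this]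
    simp
  have hww2 : polar Q w f₁ = 0 := by
    rw [hw, polar_smul_left, polar_sub_left, polar_sub_left, polar_smul_left, polar_smul_left, hv2]
    have := polar_comm Q f₁ e₂
    rw [H.f₁e₂] at this
    rw [← this]
    have := polar_comm Q f₁ f₂
    rw [H.f₁f₂] at this
    rw [← this]
    simp
  have hx₄e : x₄ e₁ = e₁ := hx₄.fix H.e₁f₂ (by rw [polar_comm]; exact hww1)
  have hx₄f : x₄ f₁ = f₁ := hx₄.fix H.f₁f₂ (by rw [polar_comm]; exact hww2)
  have hx₄I : x₄ ∈ isoGroup Q := hx₄.mem_iso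
  have hd : d = 0 := by
    have h3 := hx₄I v
    rw [e4, hvQ, Q_add, QuadraticMap.map_smul, QuadraticMap.map_smul, H.Qe₂, H.Qf₂, polar_smul_left,
      polar_smul_right, H.e₂f₂] at h3
    simp only [smul_zero, zero_add, add_zero, smul_eq_mul, mul_one, mul_zero] at h3
    exact (mul_eq_zero.mp h3).resolve_left hx₃c
  rw [hd, zero_smul, add_zero] at e4
  set g₃ := x₄ * x₃ * g₂ with hg₃
  have hg₃I : g₃ ∈ isoGroup Q := Subgroup.mul_mem _ (Subgroup.mul_mem _ hx₄I hx₃I) hg₂I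
  have hg₃e₁ : g₃ e₁ = e₁ := by
    show x₄ (x₃ (g₂ e₁)) = e₁
    rw [hg₂e, hx₃e, hx₄e]
  have hg₃f₁ : g₃ f₁ = f₁ := by
    show x₄ (x₃ (g₂ f₁)) = f₁
    rw [hg₂f, hx₃f, hx₄f]
  have hg₃e₂ : g₃ e₂ = c • e₂ := e4
  -- step D
  let c' : Fˣ := Units.mk0 c hx₃c
  let τ := dg (1 : F) ![1, c'] (one_mul 1)
  have hτI : τ ∈ isoGroup Q := dg_mem _ _ _
  have hτe₁ : τ e₁ = e₁ := by
    rw [he₁, dg_apply_E]
    simp
  have hτf₁ : τ f₁ = f₁ := by
    rw [hf₁, dg_apply_F]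
    simp
  have hτe₂ : τ e₂ = c • e₂ := by
    rw [he₂, dg_apply_E]
    simp [c']
  have hinvτ : ∀ x, τ⁻¹ (τ x) = x := by
    intro x
    show (τ⁻¹ * τ) x = x
    rw [inv_mul_cancel]; rfl
  set g₄ := τ⁻¹ * g₃ with hg₄
  have hg₄I : g₄ ∈ isoGroup Q := Subgroup.mul_mem _ (Subgroup.inv_mem _ hτI) hg₃I
  have hg₄e₁ : g₄ e₁ = e₁ := by
    show τ⁻¹ (g₃ e₁) = e₁
    rw [hg₃e₁]
    conv_lhs => rw [← hτe₁]
    exact hinvτ _
  have hg₄f₁ : g₄ f₁ = f₁ := by
    show τ⁻¹ (g₃ f₁) = f₁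
    rw [hg₃f₁]
    conv_lhs => rw [← hτf₁]
    exact hinvτ _
  have hg₄e₂ : g₄ e₂ = e₂ := by
    show τ⁻¹ (g₃ e₂) = e₂
    rw [hg₃e₂, ← hτe₂]
    exact hinvτ _
  -- step E
  obtain ⟨x₅, hx₅, e5⟩ := fix_pair H.Qf₂ hf₂e₂ hg₄I H.Qe₂ hg₄e₂
  have hx₅I : x₅ ∈ isoGroup Q := hx₅.mem_iso
  have he₁₂ : polar Q e₁ (g₄ f₂ - f₂) = 0 := by
    rw [polar_sub_right, H.e₁f₂]
    have h := polar_g hg₄I e₁ f₂
    rw [hg₄e₁, H.e₁f₂] at h
    rw [h, sub_zero]
  have hf₁₂ : polar Q f₁ (g₄ f₂ - f₂) = 0 := by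
    rw [polar_sub_right, H.f₁f₂]
    have h := polar_g hg₄I f₁ f₂
    rw [hg₄f₁, H.f₁f₂] at h
    rw [h, sub_zero]
  have hx₅e₁ : x₅ e₁ = e₁ := hx₅.fix H.e₁e₂ he₁₂
  have hx₅f₁ : x₅ f₁ = f₁ := hx₅.fix H.f₁e₂ hf₁₂
  have hx₅e₂ : x₅ e₂ = e₂ := hx₅.fix_center
  set g₅ := x₅ * g₄ with hg₅
  have hg₅I : g₅ ∈ isoGroup Q := Subgroup.mul_mem _ hx₅I hg₄I
  have hg₅e₁ : g₅ e₁ = e₁ := by
    show x₅ (g₄ e₁) = e₁
    rw [hg₄e₁, hx₅e₁]
  have hg₅f₁ : g₅ f₁ = f₁ := by
    show x₅ (g₄ f₁) = f₁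
    rw [hg₄f₁, hx₅f₁]
  have hg₅e₂ : g₅ e₂ = e₂ := by
    show x₅ (g₄ e₂) = e₂
    rw [hg₄e₂, hx₅e₂]
  have hg₅f₂ : g₅ f₂ = f₂ := e5
  -- step F
  set y' := g₅ (bv F X0) with hy'
  have hperp : ∀ (a b : I), T.J a b = 0 → polar Q (bv F a) (bv F b) = 0 := by
    intro a b h
    rw [polar_bv, h]; simp
  have hy'1 : y' (Ff 0) = 0 := by
    rw [← polar_E y' 0]
    have h := polar_g hg₅I (bv F X0) e₁
    rw [hg₅e₁, hperp _ _ (by simp [T, dual])] at h
    exact h
  have hy'2 : y' (E 0) = 0 := by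
    rw [← polar_F y' 0]
    have h := polar_g hg₅I (bv F X0) f₁
    rw [hg₅f₁, hperp _ _ (by simp [T, dual])] at h
    exact h
  have hy'3 : y' (Ff 1) = 0 := by
    rw [← polar_E y' 1]
    have h := polar_g hg₅I (bv F X0) e₂
    rw [hg₅e₂, hperp _ _ (by simp [T, dual])] at h
    exact h
  have hy'4 : y' (E 1) = 0 := by
    rw [← polar_F y' 1]
    have h := polar_g hg₅I (bv F X0) f₂
    rw [hg₅f₂, hperp _ _ (by simp [T, dual])] at h
    exact h
  set z := y' X0 with hz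
  have hzz : z * z = 1 := by
    have h := hg₅I (bv F X0)
    rw [hQdef, Q_apply, Q_bv, ← hy', hy'1, hy'2, hy'3, hy'4, ← hz] at h
    have h2 : (T.qv X0 : F) = 1 := by simp [T]
    rw [h2] at h
    linear_combination h
  have hg₅X : g₅ (bv F X0) = z • bv F X0 := by
    apply ext_I
    · simp [← hy', ← hz]
    · intro i
      fin_cases i
      · simpa [Pi.single_apply, ← hy'] using hy'2
      · simpa [Pi.single_apply, ← hy'] using hy'4
    · intro i
      fin_cases i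
      · simpa [Pi.single_apply, ← hy'] using hy'1
      · simpa [Pi.single_apply, ← hy'] using hy'3
  have hg₅d : g₅ = dg z 1 hzz := by
    have hb : ∀ u : I, g₅ (bv F u) = dg z 1 hzz (bv F u) := by
      intro u
      rcases u with a | (i | i)
      · rw [show (Sum.inl a : I) = X0 from rfl, hg₅X, dg_apply_X]
      · rw [show (Sum.inr (Sum.inl i) : I) = E i from rfl, dg_apply_E]
        simp only [Pi.one_apply, Units.val_one, one_smul]
        fin_cases i
        · exact hg₅e₁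
        · exact hg₅e₂
      · rw [show (Sum.inr (Sum.inr i) : I) = Ff i from rfl, dg_apply_F]
        simp only [Pi.one_apply, inv_one, Units.val_one, one_smul]
        fin_cases i
        · exact hg₅f₁
        · exact hg₅f₂
    ext1 x
    rw [sum_bv x, map_sum, map_sum]
    refine Finset.sum_congr rfl fun u _ => ?_
    rw [map_smul, map_smul, hb]
  -- conclusion
  have hxa : x₄ * x₃ * (x₂ * x₁) ∈ eGroup Q :=
    Subgroup.mul_mem _ (Subgroup.mul_mem _ hx₄.mem_eGroup hx₃E) (Subgroup.mul_mem _ hx₂.mem_eGroup hx₁E)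
  refine ⟨(x₄ * x₃ * (x₂ * x₁))⁻¹ * (τ * x₅⁻¹ * τ⁻¹), Subgroup.mul_mem _ (Subgroup.inv_mem _ hxa)
    (conj_mem_eGroup hτI (Subgroup.inv_mem _ hx₅.mem_eGroup)), 1 * z, ![1, c'] * 1, (by rw [one_mul]; exact hzz), ?_⟩
  rw [← dg_mul _ _ _ _ (one_mul 1) hzz, ← hg₅d, hg₅, hg₄, hg₃, hg₂, hg₁]
  have hττ : dg (1 : F) ![1, c'] (one_mul 1) = τ := rfl
  rw [hττ]
  group

/-- The commutator subgroup of the orthogonal group is the Eichler group. -/
theorem comm_le : ⁅isoGroup (oddForm 2 F), isoGroup (oddForm 2 F)⁆ ≤ eGroup (oddForm 2 F) := by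
  rw [Subgroup.commutator_le]
  intro g₁ h₁ g₂ h₂
  obtain ⟨n₁, hn₁, z₁, c₁, hz₁, rfl⟩ := exists_decomp h₁
  obtain ⟨n₂, hn₂, z₂, c₂, hz₂, rfl⟩ := exists_decomp h₂
  set δ₁ := dg z₁ c₁ hz₁ with hδ₁
  set δ₂ := dg z₂ c₂ hz₂ with hδ₂
  have hc : δ₁ * δ₂ = δ₂ * δ₁ := dg_comm _ _ _ _ _ _
  have hδ₁I : δ₁ ∈ isoGroup (oddForm 2 F) := dg_mem _ _ _
  have hδ₂I : δ₂ ∈ isoGroup (oddForm 2 F) := dg_mem _ _ _
  have e : ⁅n₁ * δ₁, n₂ * δ₂⁆ = n₁ * (δ₁ * n₂ * δ₁⁻¹) * (δ₂ * n₁⁻¹ * δ₂⁻¹) * n₂⁻¹ := by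
    have e1 : δ₁ * δ₂ * δ₁⁻¹ = δ₂ := by rw [hc]; group
    rw [commutatorElement_def]
    calc n₁ * δ₁ * (n₂ * δ₂) * (n₁ * δ₁)⁻¹ * (n₂ * δ₂)⁻¹
        = n₁ * (δ₁ * n₂ * δ₁⁻¹) * (δ₁ * δ₂ * δ₁⁻¹) * n₁⁻¹ * δ₂⁻¹ * n₂⁻¹ := by group
      _ = _ := by rw [e1]; group
  rw [e]
  exact Subgroup.mul_mem _ (Subgroup.mul_mem _ (Subgroup.mul_mem _ hn₁ (conj_mem_eGroup hδ₁I hn₂))
    (conj_mem_eGroup hδ₂I (Subgroup.inv_mem _ hn₁))) (Subgroup.inv_mem _ hn₂)

/-- An Eichler transformation whose centre is an eigenvector of an isometry is a commutator. -/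
theorem eich_comm {τ : (I → F) ≃ₗ[F] (I → F)} (hτ : τ ∈ isoGroup (oddForm 2 F)) {p w w' : I → F} {κ α : F} (hκ : κ ≠ 0)
    (hκ1 : κ ≠ 1) (hp : τ p = κ • p) (hw : w = w' + α • p) (hτw : τ w' = w') {g : (I → F) ≃ₗ[F] (I → F)}
    (H : EAt (oddForm 2 F) p w g) :
    g ∈ ⁅isoGroup (oddForm 2 F), isoGroup (oddForm 2 F)⁆ := by
  set Q := oddForm 2 F with hQdef
  have hpw' : polar Q p w' = 0 := by
    have h1 := H.ab
    rw [hw, polar_add_right, polar_smul_right, polar_self_of_singular H.Qa, smul_zero, add_zero] at h1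
    exact h1
  have hk1 : κ - 1 ≠ 0 := sub_ne_zero.mpr hκ1
  set u := (κ - 1)⁻¹ • w' with hu
  have hpu : polar Q p u = 0 := by
    rw [hu, polar_smul_right, hpw', smul_zero]
  obtain ⟨h, hh⟩ := exists_eAt H.Qa hpu
  have h1 := hh.conj hτ
  rw [hp] at h1
  have hτu : τ u = u := by
    rw [hu, map_smul, hτw]
  rw [hτu] at h1
  have h2 := h1.smul_center hκ
  have h3 := h2.mul hh.inv
  obtain ⟨k, hk⟩ := exists_eAt (Q := Q) (a := p) (b := α • p) H.Qa (by
    rw [polar_smul_right, polar_self_of_singular H.Qa, smul_zero])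
  have h4 := h3.mul hk
  have e : κ • u + -u + α • p = w := by
    have e1 : κ • u + -u = w' := by
      rw [hu, smul_smul]
      have : κ * (κ - 1)⁻¹ = (κ - 1)⁻¹ + 1 := by field_simp; ring
      rw [this, add_smul, one_smul]
      have h5 : (κ - 1)⁻¹ • w' + w' + -((κ - 1)⁻¹ • w') = w' := by abel
      exact h5
    rw [e1, hw]
  rw [e] at h4
  rw [H.unique h4, hk.eq_one_of_smul, mul_one]
  exact Subgroup.commutator_mem_commutator hτ hh.mem_iso

theorem le_comm (hF : ∃ a : F, a ≠ 0 ∧ a ≠ 1) : eGroup (oddForm 2 F) ≤ ⁅isoGroup (oddForm 2 F), isoGroup (oddForm 2 F)⁆ := by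
  obtain ⟨a, ha0, ha1⟩ := hF
  have H := hp (F := F)
  let c : Fˣ := Units.mk0 a ha0
  let τ := dg (1 : F) ![c, 1] (one_mul 1)
  have hτI : τ ∈ isoGroup (oddForm 2 F) := dg_mem _ _ _
  have hfix : ∀ y : I → F, y (E 0) = 0 → y (Ff 0) = 0 → τ y = y := by
    intro y h1 h2
    funext u
    rcases u with u | (i | i)
    · show (1 : F) * _ = _
      simp
    · show ((![c, 1] i : Fˣ) : F) * y (E i) = y (E i)
      fin_cases i
      · show _ * y (E 0) = y (E 0)
        rw [h1, mul_zero]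
      · simp
    · show (((![c, 1] i)⁻¹ : Fˣ) : F) * y (Ff i) = y (Ff i)
      fin_cases i
      · show _ * y (Ff 0) = y (Ff 0)
        rw [h2, mul_zero]
      · simp
  rw [eGroup_eq_X₀', X₀, Subgroup.closure_le]
  rintro g ⟨w, hw | hw⟩
  · set α := w (E 0) with hα
    have hw0 : w (Ff 0) = 0 := by
      rw [← polar_E w 0, polar_comm]
      exact hw.ab
    refine eich_comm hτI (κ := a) (α := α) (w' := w - α • bv F (E 0)) ha0 ha1 ?_ (by abel) (hfix _ ?_ ?_) hw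
    · rw [dg_apply_E]
      simp [c]
    · simp [Pi.single_apply, hα]
    · simp [Pi.single_apply, hw0]
  · set α := w (Ff 0) with hα
    have hw0 : w (E 0) = 0 := by
      rw [← polar_F w 0, polar_comm]
      exact hw.ab
    refine eich_comm hτI (κ := a⁻¹) (α := α) (w' := w - α • bv F (Ff 0)) (inv_ne_zero ha0) (by
      intro h
      apply ha1
      rw [← inv_inv a, h, inv_one]) ?_ (by abel) (hfix _ ?_ ?_) hw
    · rw [dg_apply_F]
      simp [c]
    · simp [Pi.single_apply, hw0]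
    · simp [Pi.single_apply, hα]

theorem comm_eq (hF : ∃ a : F, a ≠ 0 ∧ a ≠ 1) :
    ⁅isoGroup (oddForm 2 F), isoGroup (oddForm 2 F)⁆ = eGroup (oddForm 2 F) :=
  le_antisymm comm_le (le_comm hF)

theorem hmem : chevB2 ∈ [chevG2, chevB2, chevD4, chevF4, chevE6, chevE7, chevE8] := by simp

theorem pr_all : ∀ a b : I, a ≠ b → b ≠ dual a → Pr chevB2 T a b := by
  unfold Pr
  rw [nroots_eq]
  decide +kernel

theorem ab_perp : ∀ r, r < chevB2.nroots → T.J (T.a r) (T.b r) = 0 ∧ T.qv (T.a r) = 0 := by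
  rw [nroots_eq]
  decide +kernel

set_option synthInstance.maxSize 1000 in
theorem ex1 : ∀ a p : I, ∃ b : I, b ≠ p ∧ a ≠ b ∧ b ≠ dual a := by
  decide +kernel

set_option synthInstance.maxSize 1000 in
theorem ex2 : ∀ a b : I, ∃ c : I, a ≠ c ∧ c ≠ dual a ∧ b ≠ c ∧ c ≠ dual b := by
  decide +kernel

theorem main_B2 (hF : ∃ a : F, a ≠ 0 ∧ a ≠ 1) : Nonempty (chevB2.group F ≃* Cfsg.POmega F (Cfsg.quadFormOdd 2 F)) := by
  have h1 : ∀ a p : I, p ≠ a → ∃ b, b ≠ p ∧ Pr chevB2 T a b := by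
    intro a p _
    obtain ⟨b, h2, h3, h4⟩ : ∃ b : I, b ≠ p ∧ a ≠ b ∧ b ≠ dual a := by
      exact ex1 a p
    exact ⟨b, h2, pr_all a b h3 h4⟩
  have h2 : ∀ a b : I, ∃ c, Pr chevB2 T a c ∧ Pr chevB2 T b c := by
    intro a b
    obtain ⟨c, h2, h3, h4, h5⟩ : ∃ c : I, a ≠ c ∧ c ≠ dual a ∧ b ≠ c ∧ c ≠ dual b := by
      exact ex2 a b
    exact ⟨c, pr_all a c h2 h3, pr_all b c h4 h5⟩
  obtain ⟨e₁⟩ := main (T := T) (Q := oddForm 2 F) chevB2 (Cfsg.Agent.Lib.Lie.AxOf.ax_of_mem hmem) good chk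
    (fun r hr => ⟨by rw [Q_bv, (ab_perp r hr).2]; simp, by rw [polar_bv, (ab_perp r hr).1]; simp⟩) eGroup_eq_root
    (fun r hr => by
      rw [nroots_eq] at hr
      simp [T, hr]) (by rw [nroots_eq]; decide +kernel) h1 h2
      (.inl ()) (Cfsg.Agent.S1056.result hF).1 (not_central hp)
  obtain ⟨e₂⟩ := pomega_equiv (oddForm 2 F) (comm_eq hF)
  exact ⟨e₁.trans e₂.symm⟩

end Cfsg.Agent.Lib.ChevOrth.B2
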